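import Mathlib
import Cfsg.Agent.F42S.Defs
import Cfsg.Agent.Chev.StInv
import Cfsg.Agent.Chev.StChev
import Cfsg.Agent.FinS.Defs

/-! Standard subgroup `F₄(2ⁿ)` (S3328): definitions.  Root indices and tables (`lg ip ad gm sm sr Mo`)
are those of `F42S` (see the docstring of `F42S/Defs`): `-r = 47 - r`, positive iff `24 ≤ r`, the
order of the indices is the lexicographic order of the roots (so `r + s > r, s` for positive roots),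
`ip r s = 8 + 4 ⟨r, s⟩` (short roots have norm 1), `47 = e₁ + e₂` long, `44 = e₁` short. -/

set_option autoImplicit false

namespace Cfsg.Agent.F4Q

open Cfsg.Lie Cfsg.Agent.Chev Subgroup Cfsg.Agent.PLocal.Amb
open Cfsg.Agent.F42S (lg ip ad gm sm sr Mo)
open Cfsg.Agent.FinS (Rt Rg Uf)
open scoped commutatorElement

/-- the model group -/
abbrev Γ (F : Type*) [Field F] := ↥(chevF4.group F)

section Rel

variable {E : Type*} [CommRing E] {G : Type*} [Group G]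

/-- parameters of long roots are fixed by `ρ` -/
def Ok (ρ : E ≃+* E) (r : ℕ) (e : E) : Prop := lg r = true → ρ e = e

/-- the group generated by the root groups of the roots in `S` -/
def YS (ρ : E ≃+* E) (Y : ℕ → E → G) (S : Set ℕ) : Subgroup G :=
  closure {g | ∃ r ∈ S, ∃ e, Ok ρ r e ∧ g = Y r e}

/-- `SK 0 = G₀`, `SK 24 = S₀`, `SK 47 = A` -/
def SK (ρ : E ≃+* E) (Y : ℕ → E → G) (k : ℕ) : Subgroup G := YS ρ Y {r | k ≤ r ∧ r < 48}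

/-- `Q = O₂(C(A))`: roots `24 26 29 31 32 36 38 39 40 42 43 44 45 46 47` -/
def QQ (ρ : E ≃+* E) (Y : ℕ → E → G) : Subgroup G := YS ρ Y {r | r < 48 ∧ 8 < ip 47 r}

/-- `n_r` -/
def nY (Y : ℕ → E → G) (r : ℕ) : G := Y r 1 * Y (47 - r) 1 * Y r 1

/-- `Y r e` is a long root element of `G₀` -/
def Ty (ρ : E ≃+* E) (r : ℕ) (e : E) : Prop :=
  e ≠ 0 ∧ (lg r = true → ρ e = e) ∧ (lg r = false → e * ρ e = 0)

/-- Relations of a group with relative root system `F₄` in characteristic two: `F₄(E)` for `ρ = 1`,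
`²E₆` (`E` a field) or `E₆` (`E = F × F`) for `ρ ≠ 1`. -/
structure Rel (ρ : E ≃+* E) (Y : ℕ → E → G) : Prop where
  two : ∀ e : E, e + e = 0
  ρρ : ∀ e, ρ (ρ e) = e
  add : ∀ r < 48, ∀ e f, Ok ρ r e → Ok ρ r f → Y r e * Y r f = Y r (e + f)
  inj : ∀ r < 48, ∀ e, Ok ρ r e → Y r e = 1 → e = 0
  com : ∀ r < 48, ∀ s < 48, Mo r s → ∀ e f, Ok ρ r e → Ok ρ s f → Commute (Y r e) (Y s f)
  ll : ∀ r < 48, ∀ s < 48, lg r = true → lg s = true → ip r s = 8 → ∀ e f, ρ e = e → ρ f = f →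
    Commute (Y r e) (Y s f)
  c90 : ∀ r < 48, ∀ s < 48, lg r = false → lg s = false → ip r s = 8 → ∀ e f,
    Y s f * Y r e = Y r e * Y s f * Y (ad r s) (e * ρ f + ρ e * f)
  cs : ∀ r < 48, ∀ s < 48, lg r = false → lg s = false → ip r s = 6 → ∀ e f,
    Y s f * Y r e = Y r e * Y s f * Y (ad r s) (ρ (e * f))
  cl : ∀ r < 48, ∀ s < 48, lg r = true → lg s = true → ip r s = 4 → ∀ e f, ρ e = e → ρ f = f →
    Y s f * Y r e = Y r e * Y s f * Y (ad r s) (e * f)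
  cm : ∀ r < 48, ∀ s < 48, lg r = true → lg s = false → ip r s = 4 → ∀ c f, ρ c = c →
    Y s f * Y r c = Y r c * Y s f * (Y (ad r s) (c * f) * Y (ad (ad r s) s) (c * (f * ρ f)))
  wn : ∀ i < 4, ∀ r < 48, ∀ e, Ok ρ r e →
    nY Y (sm i) * Y r e * (nY Y (sm i))⁻¹ = Y (sr i r) (if i < 2 then ρ e else e)

/-- the fixed ring of `ρ` is a field and `E` is reduced with a nondegenerate trace form if `ρ ≠ 1` -/
structure Fld (ρ : E ≃+* E) : Prop where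
  ne : (1 : E) ≠ 0
  unit : ∀ e, ρ e = e → e ≠ 0 → ∃ f, ρ f = f ∧ e * f = 1
  tr : (∀ e, ρ e = e) ∨ ∃ w, ρ w = w + 1

end Rel

variable {F : Type*} [Field F] {G : Type*} [Group G]

/-- root elements of the model -/
noncomputable def xx (r : ℕ) (a : F) : Γ F := xC chevF4 F r a

/-- the identity of `F` -/
abbrev I0 (F : Type*) [Field F] : F ≃+* F := RingEquiv.refl F

/-- generated by the root groups of `S` in the model -/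
noncomputable abbrev XL (F : Type*) [Field F] (S : Set ℕ) : Subgroup (Γ F) := YS (I0 F) xx S

/-- `UU 24 = U`, `UU 0 = ⊤` -/
noncomputable abbrev UU (F : Type*) [Field F] (k : ℕ) : Subgroup (Γ F) := SK (I0 F) xx k

/-- `M⁰_r` -/
noncomputable abbrev MM (F : Type*) [Field F] (r : ℕ) : Subgroup (Γ F) := XL F {s | s < 48 ∧ Mo r s}

/-- the graph automorphism -/
def Gam (γ : Γ F ≃* Γ F) : Prop :=
  ∀ r < 48, ∀ a, γ (xx r a) = xx (gm r) (if lg r = true then a else a ^ 2)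

/-- `L = j(F₄(q))` is standard and `t` is the involution of `C(L)`. -/
structure Fr (j : Γ F →* G) (t : G) : Prop where
  tt : t * t = 1
  t1 : t ≠ 1
  tj : ∀ a, Commute t (j a)
  inj : Function.Injective j
  nrm : ∀ g, Commute g t → ∀ a, ∃ b, g * j a * g⁻¹ = j b
  cyc : ∀ P : Subgroup G, P ≤ 𝐂[j.range] → IsPGroup 2 P → IsCyclic P

/-- ... and `G = X ⟨t⟩` with `X = F*(G)` simple -/
structure Top (X : Subgroup G) (j : Γ F →* G) (t : G) : Prop extends Fr j t where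
  nrmX : X.Normal
  simple : IsSimpleGroup X
  nab : ¬ IsMulCommutative X
  cenX : 𝐂[X] ≤ X
  le : ∀ a, j a ∈ X
  gen : ∀ g, g ∈ X ∨ g * t ∈ X

/-- `C(t) ∩ C(L) = O × ⟨t⟩`, `O` of odd order -/
structure Fo (j : Γ F →* G) (t : G) (O : Subgroup G) : Prop extends Fr j t where
  odd : ∀ o ∈ O, Odd (orderOf o)
  Ot : ∀ o ∈ O, Commute t o
  Oj : ∀ o ∈ O, ∀ a, Commute o (j a)
  cen : ∀ g, Commute g t → (∀ a, Commute g (j a)) → ∃ o ∈ O, g = o ∨ g = o * t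

/-- `t` and `t x₄₄(1)` are swapped by an element fixing `x₄₄(1)` -/
def Sw (j : Γ F →* G) (t : G) : Prop :=
  ∃ g, g * t * g⁻¹ = t * j (xx 44 1) ∧ Commute g (j (xx 44 1))

/-- translations along the short root group `X₄₄` -/
def Yd (j : Γ F →* G) (t : G) (ε : F) : Prop :=
  ∀ a, ∃ y, y * t * y⁻¹ = t * j (xx 44 a) ∧ (∀ s < 48, Mo 44 s → ∀ c, Commute y (j (xx s c))) ∧
    ∀ s < 48, lg s = false → ip 44 s = 8 → ∀ c,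
      y * j (xx s c) * y⁻¹ = j (xx s c) * j (xx (ad 44 s) (ε * a * c))

/-- translations along the long root group `X₄₇` centralizing `C_L(X₄₇)` -/
def Tl (j : Γ F →* G) (t : G) : Prop :=
  ∀ a, ∃ y, y * t * y⁻¹ = t * j (xx 47 a) ∧ ∀ s < 48, 8 ≤ ip 47 s → ∀ c, Commute y (j (xx s c))

/-- The group `G₀ = SK ρ Y 0`. -/
structure RU (j : Γ F →* G) (t : G) (O : Subgroup G) {E : Type*} [CommRing E] (ι : F →+* E)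
    (τ ρ : E ≃+* E) (Y : ℕ → E → G) : Prop extends Fo j t O where
  rel : Rel ρ Y
  ext : ∀ r < 48, ∀ a, Y r (ι a) = j (xx r a)
  ρι : ∀ a, ρ (ι a) = ι a
  act : ∀ r < 48, ∀ e, Ok ρ r e → t * Y r e * t⁻¹ = Y r (τ e)
  ττ : ∀ e, τ (τ e) = e
  fix : ∀ e, τ e = e ↔ e ∈ ι.range
  eps : ∃ w, τ w = w + 1
  rho : ρ = τ ∨ ρ = RingEquiv.refl E
  cO : ∀ o ∈ O, ∀ r < 48, ∀ e, Ok ρ r e → Commute o (Y r e)
  hn : ρ = τ → ¬ IsConj t (t * j (xx 47 1))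
  noL : ∀ a, ¬ IsConj t (j a)

/-- Facts on `G₀` that need its identification. -/
structure GF (j : Γ F →* G) (t : G) {E : Type*} [CommRing E] (ρ : E ≃+* E) (Y : ℕ → E → G) :
    Prop where
  fld : Fld ρ
  pair : ∀ k ∈ SK ρ Y 0, ∃ u ∈ SK ρ Y 24, ∃ r < 48, ∃ e, Ty ρ r e ∧
    ∀ a, ρ a = a → k * Y 47 a * k⁻¹ = u * Y r (a * e) * u⁻¹
  sl2 : ∀ a, ρ a = a → (Y 47 1 * Y 0 a) ^ 6 = 1 →
    (Y 47 1 * Y 0 a) ^ 3 = 1 ∨ (Y 47 1 * Y 0 a) ^ 2 = 1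
  syl : IsSyl 2 (SK ρ Y 24) (SK ρ Y 0)
  cen : ∀ x ∈ 𝐍[SK ρ Y 0], x * x = 1 → ∃ k ∈ 𝐍[SK ρ Y 0], x * (k * t * k⁻¹) = k * t * k⁻¹ * x
  ab : ∀ x ∈ ⁅𝐍[SK ρ Y 0], 𝐍[SK ρ Y 0]⁆, x * x = 1 → x ∈ SK ρ Y 0
  spl : ∃ P P0 : Subgroup G, IsSyl 2 P 𝐍[SK ρ Y 0] ∧ SK ρ Y 24 ≤ P ∧ P0 ≤ P ∧
    P0 ⊓ SK ρ Y 0 = ⊥ ∧ P ≤ SK ρ Y 24 ⊔ P0
  rtN : ∀ g ∈ 𝐍[SK ρ Y 0], Odd (orderOf g) → g * Y 47 1 * g⁻¹ ∈ Rt (SK ρ Y 0) (Y 47 1)
  inn : ∀ d, IsConj t d → Commute d t → ∃ a, d = j a ∨ d = t * j a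

/-- Local geometry of a root group `A ∋ z` and of `Q = O₂(C(A))`. -/
structure Geo (G0 S0 Q A : Subgroup G) (z t : G) : Prop where
  SG : S0 ≤ G0
  perf : ⁅G0, G0⁆ = G0
  tt : t * t = 1
  tG : t ∈ 𝐍[G0]
  tS : t ∈ 𝐍[S0]
  tQ : t ∈ 𝐍[Q]
  tz : t * z = z * t
  zA : z ∈ A
  z1 : z ≠ 1
  AQ : A ≤ Q
  QA : ¬ Q ≤ A
  QS : Q ≤ S0
  SA : S0 ≤ 𝐂[A]
  sqA : ∀ x ∈ A, x * x = 1
  rt : ∀ x ∈ A, x ≠ 1 → x ∈ Rt G0 z
  cz : ∀ g ∈ G0, g * z = z * g → g ∈ 𝐂[A]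
  cq : ∀ g ∈ G0, g * z = z * g → g ∈ 𝐍[Q]
  g3 : ∀ k ∈ G0, k * z * k⁻¹ ∈ S0 → cj(k, A) ≤ S0
  g3Q : ∀ k ∈ G0, k * z * k⁻¹ ∈ Q → cj(k, A) ≤ Q
  zr : ∀ y ∈ Rt G0 z, y ∈ S0 ⊓ 𝐂[S0] → y ∈ A
  QQ : ⁅Q, Q⁆ ≤ A
  sqQ : ∀ y ∈ Q, y * y ∈ A
  genQ : Q ≤ closure (Rt G0 z ∩ Q)
  col : ∀ y ∈ S0, y ∈ Rt G0 z → y * z ∈ Rt G0 z → y ∈ Q
  com : ∀ y ∈ Q, y ∉ 𝐂[Q] → ∀ a ∈ A, ∃ u ∈ Q, u * y * u⁻¹ = y * a
  zsq : ∀ y ∈ Q ⊓ 𝐂[Q], y * y = 1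
  uniq : ∀ c ∈ Q, c ∈ Rt G0 z ∨ c = 1 → ∀ y ∈ Q ⊓ 𝐂[Q], c * y ∈ Rt G0 z → y ∈ A
  g1 : ∀ x ∈ Q, x ∈ Rt G0 z → x ∉ A → ∃ u ∈ Rt G0 z,
    u * z = z * u ∧ u * x = x * u ∧ u * z ∈ Rt G0 z ∧ u * x ∉ Rt G0 z ∧ u * x ≠ 1
  e2 : ∀ a ∈ S0, (∀ s ∈ S0, s * a * s⁻¹ * a⁻¹ ∈ A) → ∃ v ∈ A, a * v * (a * v) = 1
  e3 : ∀ x ∈ A, ∃ u ∈ S0, u * u = 1 ∧ t * u = u * t ∧ ∃ s ∈ S0, s * u * s⁻¹ = u * x
  conn : ∀ R : Set G, z ∈ R → (∀ k ∈ G0, k * z * k⁻¹ ∈ R → ∀ c ∈ Rt G0 z, c ∈ Q →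
    k * c * k⁻¹ ∈ R) → G0 ≤ closure R

/-- The extra facts for `q = 2`. -/
structure Two (G0 S0 Q A : Subgroup G) (z t : G) : Prop where
  zq : Q ⊓ 𝐂[Q] ≤ A
  tv : ∀ x ∈ S0, x ∉ Q → ∀ R : Subgroup G, A ≤ R → (∀ u ∈ Q, ⁅u, x⁆ ∈ R) → 8 < Nat.card R
  small : ∀ I : Subgroup G, A ≤ I → I ≤ Q → t ∈ 𝐍[I] →
    (Nat.card Q = 4 * Nat.card I ∧ Q ≤ I ⊔ (Q ⊓ 𝐂[I])) ∨ Nat.card Q = 2 * Nat.card I →
    ∃ k ∈ G0, t * k * (t * k) = 1 ∧ k ∈ 𝐍[I] ∧ k * z = z * k ∧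
      ∀ c ∈ Q, c ∉ I → ⁅c, t * k⁆ ∈ I → ∃ i ∈ I, t * k * c * i * (t * k * c * i) = 1

/-- The hypotheses of the final theorem. -/
structure HF (X G0 S0 Q A : Subgroup G) (z t : G) : Prop extends Geo G0 S0 Q A z t where
  nrmX : X.Normal
  simple : IsSimpleGroup X
  nab : ¬ IsMulCommutative X
  cenX : 𝐂[X] ≤ X
  gen : ∀ g, g ∈ X ∨ g * t ∈ X
  le : G0 ≤ X
  sylX : IsSyl 2 S0 X
  tX : t ∉ X
  uf : ∀ d ∈ 𝐍[G0], d * d = 1 → d ∉ X → Uf 𝐍[G0] d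
  fc : ∀ g ∈ X, ∀ y ∈ Rt G0 z, g * y * g⁻¹ ∈ 𝐍[G0] → g * y * g⁻¹ ∈ Rt G0 z
  two : Nat.card A = 2 → Two G0 S0 Q A z t

/-- the conjugates of `Q` under `H = C_X(z)` -/
def Lam (X Q : Subgroup G) (z : G) : Set (Subgroup G) :=
  {P | ∃ h ∈ X, h * z = z * h ∧ P = cj(h, Q)}

/-- `I` is an intersection of maximal order of two members of `Lam`, one of which is `Q` -/
structure Mx (X Q : Subgroup G) (z : G) (I P : Subgroup G) : Prop where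
  mem : P ∈ Lam X Q z
  ne : P ≠ Q
  eq : I = Q ⊓ P
  max : ∀ P₁ ∈ Lam X Q z, ∀ P₂ ∈ Lam X Q z, P₁ ≠ P₂ → Nat.card ↥(P₁ ⊓ P₂) ≤ Nat.card I

/-- `c ∈ P \ I` normalizes no other member of `Lam` containing `I` -/
structure Gd (X Q : Subgroup G) (z : G) (I P : Subgroup G) (c : G) : Prop where
  mem : P ∈ Lam X Q z
  le : I ≤ P
  cP : c ∈ P
  cI : c ∉ I
  uq : ∀ P' ∈ Lam X Q z, I ≤ P' → c ∈ 𝐍[P'] → P' = P

/-- The split case: `G₀ = L₁ × L₁^t`. -/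
structure Sp (X : Subgroup G) (j φ : Γ F →* G) (t : G) (O : Subgroup G) : Prop
    extends Top X j t, Fo j t O where
  injφ : Function.Injective φ
  com : ∀ a b, Commute (φ a) (t * φ b * t⁻¹)
  diag : ∀ a, j a = φ a * (t * φ a * t⁻¹)
  cent : ∀ g, Commute g t → g ∈ 𝐍[φ.range ⊔ cj(t, φ.range)]
  noL : ∀ a, ¬ IsConj t (j a)

end Cfsg.Agent.F4Q
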